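import Mathlib

/-!
# Two primes between `n` and `2 n`

For `n ≥ 6` there are at least two primes `p` with `n < p ≤ 2 n` (a weak form of Ramanujan's
`R₂ = 11`).  This follows the proof of Bertrand's postulate in Mathlib.
-/

set_option autoImplicit false

namespace Cfsg.Agent.Lib.AltSpec.TwoPrimes

open Real

theorem real_main {x : ℝ} (x_large : (512 : ℝ) ≤ x) :
    2 * x * (x * (2 * x) ^ √(2 * x)) * 4 ^ (2 * x / 3) ≤ 4 ^ x := by
  let f : ℝ → ℝ := fun x => log 2 + log x + (log x + √(2 * x) * log (2 * x)) - log 4 / 3 * x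
  have hf' : ∀ x, 0 < x → 0 < 2 * x * (x * (2 * x) ^ √(2 * x)) / 4 ^ (x / 3) := fun x h =>
    div_pos (mul_pos (mul_pos two_pos h) (mul_pos h (rpow_pos_of_pos (mul_pos two_pos h) _)))
      (rpow_pos_of_pos four_pos _)
  have hf : ∀ x, 0 < x → f x = log (2 * x * (x * (2 * x) ^ √(2 * x)) / 4 ^ (x / 3)) := by
    intro x h5
    have h6 := mul_pos (zero_lt_two' ℝ) h5
    have h7 := rpow_pos_of_pos h6 (√(2 * x))
    rw [log_div (mul_pos (mul_pos two_pos h5) (mul_pos h5 h7)).ne' (rpow_pos_of_pos four_pos _).ne',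
      log_mul (mul_pos two_pos h5).ne' (mul_pos h5 h7).ne', log_mul two_ne_zero h5.ne',
      log_mul h5.ne' h7.ne', log_rpow h6, log_rpow zero_lt_four, ← mul_div_right_comm, ← mul_div,
      mul_comm x]
  have h5 : 0 < x := lt_of_lt_of_le (by norm_num1) x_large
  rw [← div_le_one (rpow_pos_of_pos four_pos x), ← div_div_eq_mul_div, ← rpow_sub four_pos, ←
    mul_div 2 x, mul_div_left_comm, ← mul_one_sub, (by norm_num1 : (1 : ℝ) - 2 / 3 = 1 / 3),
    mul_one_div, ← log_nonpos_iff (hf' x h5).le, ← hf x h5]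
  have h : ConcaveOn ℝ (Set.Ioi 0.5) f := by
    apply ConcaveOn.sub
    · apply ConcaveOn.add
      · apply ConcaveOn.add
        · exact concaveOn_const _ (convex_Ioi 0.5)
        · exact strictConcaveOn_log_Ioi.concaveOn.subset
            (Set.Ioi_subset_Ioi (by norm_num)) (convex_Ioi 0.5)
      apply ConcaveOn.add
      · exact strictConcaveOn_log_Ioi.concaveOn.subset
          (Set.Ioi_subset_Ioi (by norm_num)) (convex_Ioi 0.5)
      convert!
        ((strictConcaveOn_sqrt_mul_log_Ioi.concaveOn.comp_linearMap ((2 : ℝ) • LinearMap.id)))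
        using 1
      ext x
      simp only [Set.mem_Ioi, Set.mem_preimage, LinearMap.smul_apply,
        LinearMap.id_coe, id_eq, smul_eq_mul]
      rw [← mul_lt_mul_iff_right₀ (two_pos)]
      norm_num1
      rfl
    apply ConvexOn.smul
    · refine div_nonneg (log_nonneg (by norm_num1)) (by norm_num1)
    · exact convexOn_id (convex_Ioi (0.5 : ℝ))
  suffices ∃ x1 x2, 0.5 < x1 ∧ x1 < x2 ∧ x2 ≤ x ∧ 0 ≤ f x1 ∧ f x2 ≤ 0 by
    obtain ⟨x1, x2, h1, h2, h0, h3, h4⟩ := this
    exact (h.right_le_of_le_left'' h1 ((h1.trans h2).trans_le h0) h2 h0 (h4.trans h3)).trans h4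
  refine ⟨18, 512, by norm_num1, by norm_num1, x_large, ?_, ?_⟩
  · have : √(2 * 18 : ℝ) = 6 := (sqrt_eq_iff_mul_self_eq_of_pos (by norm_num1)).mpr (by norm_num1)
    rw [hf _ (by norm_num1), log_nonneg_iff (by positivity), this, one_le_div (by norm_num1)]
    norm_num1
  · have : √(2 * 512) = 32 :=
      (sqrt_eq_iff_mul_self_eq_of_pos (by norm_num1)).mpr (by norm_num1)
    rw [hf _ (by norm_num1), log_nonpos_iff (hf' _ (by norm_num1)).le, this,
        div_le_one (by positivity)]
    have e1 : ((2 : ℝ) * 512) ^ (32 : ℝ) = (2 : ℝ) ^ (320 : ℕ) := by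
      have : (32 : ℝ) = ((32 : ℕ) : ℝ) := by norm_num
      rw [this, rpow_natCast, (by norm_num : (2 : ℝ) * 512 = 2 ^ 10), ← pow_mul]
    have e2 : (4 : ℝ) ^ ((512 : ℝ) / 3) ≥ (2 : ℝ) ^ (341 : ℕ) := by
      have : (4 : ℝ) = (2 : ℝ) ^ (2 : ℝ) := by rw [rpow_two]; norm_num
      rw [this, ← rpow_mul (by norm_num), ← rpow_natCast]
      apply rpow_le_rpow_of_exponent_le (by norm_num)
      norm_num
    rw [e1]
    refine le_trans ?_ e2
    rw [(by norm_num : (2 : ℝ) * 512 = 2 ^ 10), (by norm_num : (512 : ℝ) = 2 ^ 9)]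
    rw [← pow_add, ← pow_add]
    exact pow_le_pow_right₀ (by norm_num) (by norm_num)

open Nat in
/-- The inequality contradicting the absence of a second prime, for large enough `n`. -/
theorem nat_main {n : ℕ} (n_large : 512 ≤ n) :
    2 * n * (n * (2 * n) ^ Nat.sqrt (2 * n)) * 4 ^ (2 * n / 3) ≤ 4 ^ n := by
  rw [← @cast_le ℝ]
  simp only [cast_mul, cast_pow, ← Real.rpow_natCast, cast_ofNat]
  refine _root_.trans ?_ (real_main (by exact_mod_cast n_large))
  gcongr
  · have n2_pos : 0 < 2 * n := by positivity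
    exact mod_cast n2_pos
  · exact_mod_cast Real.nat_sqrt_le_real_sqrt
  · norm_num1
  · exact cast_div_le.trans (by norm_cast)

open Nat in
theorem centralBinom_factorization_small_one (n r : ℕ) (n_large : 2 < n) (hrp : r.Prime)
    (hr : n < r) (hr2 : r ≤ 2 * n)
    (no_prime : ∀ p : ℕ, p.Prime → n < p → p ≠ r → 2 * n < p) :
    centralBinom n = r ^ (centralBinom n).factorization r *
      ∏ p ∈ Finset.range (2 * n / 3 + 1), p ^ (centralBinom n).factorization p := by
  have hnot : r ∉ Finset.range (2 * n / 3 + 1) := by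
    simp only [Finset.mem_range, not_lt]
    have : 2 * n / 3 ≤ n := by omega
    omega
  rw [← Finset.prod_insert (f := fun p => p ^ (centralBinom n).factorization p) hnot]
  refine (Eq.trans ?_ n.prod_pow_factorization_centralBinom).symm
  apply Finset.prod_subset
  · intro x hx
    rw [Finset.mem_insert] at hx
    rcases hx with rfl | hx
    · simpa [Finset.mem_range] using (by omega : x < 2 * n + 1)
    · rw [Finset.mem_range] at hx ⊢
      have : 2 * n / 3 ≤ 2 * n := Nat.div_le_self _ _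
      omega
  intro x hx h2x
  rw [Finset.mem_insert, not_or] at h2x
  obtain ⟨h2xr, h2x⟩ := h2x
  rw [Finset.mem_range, Nat.lt_succ_iff] at hx h2x
  rw [not_le, div_lt_iff_lt_mul three_pos, mul_comm x] at h2x
  obtain h | h : ¬ x.Prime ∨ x ≤ n := by
    by_contra hcon
    push Not at hcon
    have := no_prime x hcon.1 hcon.2 h2xr
    omega
  · rw [factorization_eq_zero_of_not_prime n.centralBinom h, Nat.pow_zero]
  · rw [factorization_centralBinom_of_two_mul_self_lt_three_mul n_large h h2x, Nat.pow_zero]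

open Nat in
theorem centralBinom_le_of_one_prime (n r : ℕ) (n_large : 2 < n) (hrp : r.Prime)
    (hr : n < r) (hr2 : r ≤ 2 * n)
    (no_prime : ∀ p : ℕ, p.Prime → n < p → p ≠ r → 2 * n < p) :
    centralBinom n ≤ 2 * n * ((2 * n) ^ Nat.sqrt (2 * n) * 4 ^ (2 * n / 3)) := by
  have n_pos : 0 < n := (Nat.zero_le _).trans_lt n_large
  have n2_pos : 1 ≤ 2 * n := mul_pos (zero_lt_two' ℕ) n_pos
  let S := {p ∈ Finset.range (2 * n / 3 + 1) | Nat.Prime p}
  let f x := x ^ n.centralBinom.factorization x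
  have : ∏ x ∈ S, f x = ∏ x ∈ Finset.range (2 * n / 3 + 1), f x := by
    refine Finset.prod_filter_of_ne fun p _ h => ?_
    contrapose h; dsimp only [f]
    rw [factorization_eq_zero_of_not_prime n.centralBinom h, _root_.pow_zero]
  rw [centralBinom_factorization_small_one n r n_large hrp hr hr2 no_prime, ← this, ←
    Finset.prod_filter_mul_prod_filter_not S (· ≤ Nat.sqrt (2 * n))]
  apply mul_le_mul'
  · exact pow_factorization_choose_le (mul_pos two_pos n_pos)
  apply mul_le_mul'
  · refine (Finset.prod_le_prod' fun p _ => (?_ : f p ≤ 2 * n)).trans ?_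
    · exact pow_factorization_choose_le (mul_pos two_pos n_pos)
    have : (Finset.Icc 1 (Nat.sqrt (2 * n))).card = Nat.sqrt (2 * n) := by rw [card_Icc, Nat.add_sub_cancel]
    rw [Finset.prod_const]
    refine pow_right_mono₀ n2_pos ((Finset.card_le_card fun x hx => ?_).trans this.le)
    obtain ⟨h1, h2⟩ := Finset.mem_filter.1 hx
    exact Finset.mem_Icc.mpr ⟨(Finset.mem_filter.1 h1).2.one_lt.le, h2⟩
  · refine le_trans ?_ (primorial_le_four_pow (2 * n / 3))
    refine (Finset.prod_le_prod' fun p hp => (?_ : f p ≤ p)).trans ?_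
    · obtain ⟨h1, h2⟩ := Finset.mem_filter.1 hp
      refine (pow_right_mono₀ (Finset.mem_filter.1 h1).2.one_lt.le ?_).trans (pow_one p).le
      exact Nat.factorization_choose_le_one (sqrt_lt'.mp <| not_le.1 h2)
    refine Finset.prod_le_prod_of_subset_of_one_le' (Finset.filter_subset _ _) ?_
    exact fun p hp _ => (Finset.mem_filter.1 hp).2.one_lt.le

open Nat in
theorem two_primes_large (n : ℕ) (n_large : 512 ≤ n) :
    ∃ p q : ℕ, p.Prime ∧ q.Prime ∧ q < p ∧ n < q ∧ p ≤ 2 * n := by
  obtain ⟨r, hrp, hr, hr2⟩ := Nat.exists_prime_lt_and_le_two_mul n (by omega)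
  by_cases h : ∃ s : ℕ, s.Prime ∧ n < s ∧ s ≠ r ∧ s ≤ 2 * n
  · obtain ⟨s, hsp, hs, hsr, hs2⟩ := h
    rcases lt_or_gt_of_ne hsr with hlt | hlt
    · exact ⟨r, s, hrp, hsp, hlt, hs, hr2⟩
    · exact ⟨s, r, hsp, hrp, hlt, hr, hs2⟩
  · exfalso
    push Not at h
    have no_prime : ∀ p : ℕ, p.Prime → n < p → p ≠ r → 2 * n < p := fun p hp h1 h2 => h p hp h1 h2
    have h1 : 4 ^ n < n * n.centralBinom :=
      Nat.four_pow_lt_mul_centralBinom n (le_trans (by norm_num1) n_large)
    have h2 := centralBinom_le_of_one_prime n r (by omega) hrp hr hr2 no_prime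
    have h3 := nat_main n_large
    have h4 : n * n.centralBinom ≤ n * (2 * n * ((2 * n) ^ Nat.sqrt (2 * n) * 4 ^ (2 * n / 3))) :=
      Nat.mul_le_mul_left _ h2
    have h5 : n * (2 * n * ((2 * n) ^ Nat.sqrt (2 * n) * 4 ^ (2 * n / 3))) =
        2 * n * (n * (2 * n) ^ Nat.sqrt (2 * n)) * 4 ^ (2 * n / 3) := by ring
    omega

theorem succ_step {n a b c : ℕ} (hb : b.Prime) (hc : c.Prime) (hbc : b < c) (hc2 : c ≤ 2 * a)
    (H : n < a → ∃ p q : ℕ, p.Prime ∧ q.Prime ∧ q < p ∧ n < q ∧ p ≤ 2 * n) (hn : n < b) :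
    ∃ p q : ℕ, p.Prime ∧ q.Prime ∧ q < p ∧ n < q ∧ p ≤ 2 * n := by
  by_cases h : n < a
  · exact H h
  · exact ⟨c, b, hc, hb, hbc, hn, by omega⟩

/-- Weak form of Ramanujan's theorem: for `n ≥ 6` there are two primes in `(n, 2 n]`. -/
theorem two_primes (n : ℕ) (hn : 6 ≤ n) :
    ∃ p q : ℕ, p.Prime ∧ q.Prime ∧ q < p ∧ n < q ∧ p ≤ 2 * n := by
  rcases lt_or_ge 511 n with h | h
  · exact two_primes_large n h
  replace h : n < 521 := by omega
  revert h
  refine succ_step (a := 263) (c := 523) (by norm_num) (by norm_num) (by norm_num) (by norm_num) ?_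
  refine succ_step (b := 263) (c := 269) (a := 137) (by norm_num) (by norm_num) (by norm_num)
    (by norm_num) ?_
  refine succ_step (b := 137) (c := 139) (a := 71) (by norm_num) (by norm_num) (by norm_num)
    (by norm_num) ?_
  refine succ_step (b := 71) (c := 73) (a := 37) (by norm_num) (by norm_num) (by norm_num)
    (by norm_num) ?_
  refine succ_step (b := 37) (c := 41) (a := 23) (by norm_num) (by norm_num) (by norm_num)
    (by norm_num) ?_
  refine succ_step (b := 23) (c := 29) (a := 17) (by norm_num) (by norm_num) (by norm_num)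
    (by norm_num) ?_
  refine succ_step (b := 17) (c := 19) (a := 11) (by norm_num) (by norm_num) (by norm_num)
    (by norm_num) ?_
  refine succ_step (b := 11) (c := 13) (a := 7) (by norm_num) (by norm_num) (by norm_num)
    (by norm_num) ?_
  refine succ_step (b := 7) (c := 11) (a := 6) (by norm_num) (by norm_num) (by norm_num)
    (by norm_num) ?_
  intro h
  omega

end Cfsg.Agent.Lib.AltSpec.TwoPrimes
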