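import Cfsg.Agent.Lib.AltSpec.Section
import Cfsg.Agent.Lib.AltSpec.TwoPrimes
import Cfsg.Agent.Lib.Alt.Orders
import Mathlib

/-!
# Groups with the order and element orders of an alternating group

If `G` has the order and the element orders of `Aₙ` (`n ≥ 5`) then for any prime `p` with
`n < 2 p`, `p ≤ n`, there are normal subgroups `N < H` of `G` with `H / N` simple whose order is
divisible by every prime in `(n / 2, n]`.
-/

set_option autoImplicit false

namespace Cfsg.Agent.Lib.AltSpec

open Cfsg.Agent.Lib.Alt.Orders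

theorem not_sq_dvd_factorial {p : ℕ} (hp : p.Prime) : ∀ m, m < 2 * p → ¬ p ^ 2 ∣ Nat.factorial m := by
  intro m
  induction m with
  | zero =>
    intro _ h
    have h1 := Nat.le_of_dvd (by simp) h
    have h2 : 2 ≤ p := hp.two_le
    simp only [Nat.factorial_zero] at h1
    nlinarith
  | succ m ih =>
    intro hm h
    rw [Nat.factorial_succ] at h
    by_cases hpm : m + 1 = p
    · rw [hpm, pow_two] at h
      have h1 : p ∣ Nat.factorial m := Nat.dvd_of_mul_dvd_mul_left hp.pos h
      rw [hp.dvd_factorial] at h1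
      omega
    · have hnd : ¬ p ∣ m + 1 := by
        intro hd
        obtain ⟨k, hk⟩ := hd
        rcases k with _ | _ | k
        · omega
        · omega
        · have : p * (k + 1 + 1) = p * k + 2 * p := by ring
          omega
      have hcop : Nat.Coprime (p ^ 2) (m + 1) :=
        Nat.Coprime.pow_left 2 ((Nat.Prime.coprime_iff_not_dvd hp).2 hnd)
      exact ih (by omega) (hcop.dvd_of_dvd_mul_left h)

variable {n : ℕ}

theorem two_mul_card_alt (hn : 2 ≤ n) :
    2 * Nat.card ↥(alternatingGroup (Fin n)) = Nat.factorial n := by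
  have : Nontrivial (Fin n) := Fin.nontrivial_iff_two_le.2 hn
  have h := two_mul_nat_card_alternatingGroup (α := Fin n)
  rw [h, Nat.card_eq_fintype_card, Fintype.card_perm, Fintype.card_fin]

theorem prime_dvd_card_alt (hn : 5 ≤ n) {p : ℕ} (hp : p.Prime) (hpn : p ≤ n) (h2p : n < 2 * p) :
    p ∣ Nat.card ↥(alternatingGroup (Fin n)) ∧ ¬ p ^ 2 ∣ Nat.card ↥(alternatingGroup (Fin n)) := by
  have h2 := two_mul_card_alt (n := n) (by omega)
  have hp2 : p ≠ 2 := by
    rintro rfl
    omega
  constructor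
  · have h3 : p ∣ 2 * Nat.card ↥(alternatingGroup (Fin n)) := by
      rw [h2, hp.dvd_factorial]
      exact hpn
    rcases (Nat.Prime.dvd_mul hp).1 h3 with h | h
    · exact absurd ((Nat.prime_dvd_prime_iff_eq hp Nat.prime_two).1 h) hp2
    · exact h
  · intro h
    apply not_sq_dvd_factorial hp n h2p
    rw [← h2]
    exact h.trans (Nat.dvd_mul_left _ _)

theorem not_mem_orders {p q : ℕ} (hp : p.Prime) (hq : q.Prime) (hpq : p ≠ q) (h1 : n < p * q)
    (h2 : n < p + q) : p * q ∉ Set.range (orderOf : ↥(alternatingGroup (Fin n)) → ℕ) := by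
  rw [mem_range_orderOf_iff]
  rintro ⟨c, hc2, hcs, -, hcl⟩
  obtain ⟨a, ha, hpa⟩ := exists_mem_dvd_of_prime_dvd_lcm hp (c := c) (by rw [hcl]; exact dvd_mul_right _ _)
  obtain ⟨b, hb, hqb⟩ := exists_mem_dvd_of_prime_dvd_lcm hq (c := c) (by rw [hcl]; exact dvd_mul_left _ _)
  by_cases hab : a = b
  · subst hab
    have hd : p * q ∣ a :=
      Nat.Coprime.mul_dvd_of_dvd_of_dvd ((Nat.coprime_primes hp hq).2 hpq) hpa hqb
    have h3 : p * q ≤ a := Nat.le_of_dvd (by have := hc2 a ha; omega) hd
    have h4 : a ≤ c.sum := Multiset.single_le_sum (by simp) a ha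
    omega
  · have h3 : p ≤ a := Nat.le_of_dvd (by have := hc2 a ha; omega) hpa
    have h4 : q ≤ b := Nat.le_of_dvd (by have := hc2 b hb; omega) hqb
    have hb' : b ∈ c.erase a := (Multiset.mem_erase_of_ne (Ne.symm hab)).2 hb
    have h5 : b ≤ (c.erase a).sum := Multiset.single_le_sum (by simp) b hb'
    have h6 : a + (c.erase a).sum = c.sum := by
      rw [← Multiset.sum_cons, Multiset.cons_erase ha]
    omega

theorem not_dvd_sub_one {p q : ℕ} (hp : p.Prime) (hq : q.Prime) (hn : 5 ≤ n)
    (hpn : p ≤ n) (h2q : n < 2 * q) : ¬ q ∣ p - 1 := by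
  rintro ⟨k, hk⟩
  have hp2 := hp.two_le
  rcases k with _ | _ | k
  · simp at hk
    omega
  · simp only [zero_add, mul_one] at hk
    have hpq : p = q + 1 := by omega
    have hq3 : 3 ≤ q := by omega
    rcases hq.eq_two_or_odd' with h | h
    · omega
    · rcases hp.eq_two_or_odd' with h' | h'
      · omega
      · rw [hpq] at h'
        have := h.add_odd odd_one
        exact (Nat.not_even_iff_odd.2 h') this
  · have : q * (k + 1 + 1) = q * k + 2 * q := by ring
    omega

end Cfsg.Agent.Lib.AltSpec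

namespace Cfsg.Agent.Lib.AltSpec

open Cfsg.Agent.Lib.Coprime.Action

variable {G : Type*} [Group G] [Finite G]

theorem alt_section (n : ℕ) (hn : 5 ≤ n)
    (hcard : Nat.card G = Nat.card ↥(alternatingGroup (Fin n)))
    (hspec : Set.range (orderOf : G → ℕ) = Set.range (orderOf : ↥(alternatingGroup (Fin n)) → ℕ))
    (p : ℕ) (hp : p.Prime) (hpn : p ≤ n) (h2p : n < 2 * p) :
    ∃ (N H : Subgroup G) (_ : N.Normal), H.Normal ∧ N < H ∧
      IsSimpleGroup (↥H ⧸ N.subgroupOf H) ∧
      ∀ q : ℕ, q.Prime → n < 2 * q → q ≤ n → q ∣ Nat.card (↥H ⧸ N.subgroupOf H) := by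
  obtain ⟨hpA, hp2A⟩ := prime_dvd_card_alt hn hp hpn h2p
  rw [← hcard] at hpA hp2A
  obtain ⟨H, N₀, hHn, hN₀n, hNn, hN₀p, hHp, hN₀top, hN₀n', hsimple⟩ :=
    exists_simple_section hp hpA hp2A
  set N := N₀.map H.subtype with hN
  have hNeq : N.subgroupOf H = N₀ :=
    Subgroup.comap_map_eq_self_of_injective H.subtype_injective N₀
  have hNcard : Nat.card N = Nat.card N₀ :=
    Subgroup.card_map_of_injective H.subtype_injective
  have hNH : N ≤ H := Subgroup.map_subtype_le N₀
  have hNp : ¬ p ∣ Nat.card N := by rwa [hNcard]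
  refine ⟨N, H, hNn, hHn, ?_, ?_, ?_⟩
  · refine lt_of_le_of_ne hNH ?_
    intro h
    rw [h] at hNp
    exact hNp hHp
  · have hgen : ∀ (M : Subgroup H) (_ : M.Normal), M = N₀ → IsSimpleGroup (H ⧸ M) := by
      rintro M hM rfl
      exact hsimple
    exact hgen _ _ hNeq
  · intro q hq h2q hqn
    rw [← Subgroup.index_eq_card, ← Subgroup.relIndex]
    by_cases hpq : p = q
    · subst hpq
      have h1 := card_eq_card_mul_relIndex hNH
      rw [h1] at hHp
      exact ((Nat.Prime.dvd_mul hp).1 hHp).resolve_left hNp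
    · obtain ⟨hqA, hq2A⟩ := prime_dvd_card_alt hn hq hqn h2q
      rw [← hcard] at hqA hq2A
      have hnopq : ∀ g : G, orderOf g ≠ p * q := by
        intro g hg
        have h1 : p * q ∈ Set.range (orderOf : G → ℕ) := ⟨g, hg⟩
        rw [hspec] at h1
        refine not_mem_orders hp hq hpq ?_ (by omega) h1
        have hp2 := hp.two_le
        have hq2 := hq.two_le
        nlinarith
      exact prime_dvd_section hp hq hpq hpA hp2A hqA hq2A hnopq
        (not_dvd_sub_one hp hq hn hpn h2q) (not_dvd_sub_one hq hp hn hqn h2p) H N hNH hNp hHp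

theorem not_comm_of_two_primes {S : Type*} [Group S] [IsSimpleGroup S] {p q : ℕ} (hp : p.Prime)
    (hq : q.Prime) (hpq : p ≠ q) (hpS : p ∣ Nat.card S) (hqS : q ∣ Nat.card S) :
    ¬ IsMulCommutative S := by
  intro hc
  have h := (Group.is_simple_iff_prime_card (α := S)).1 inferInstance
  have h1 := (Nat.prime_dvd_prime_iff_eq hp h).1 hpS
  have h2 := (Nat.prime_dvd_prime_iff_eq hq h).1 hqS
  exact hpq (h1.trans h2.symm)

end Cfsg.Agent.Lib.AltSpec
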