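import Cfsg.Agent.Lib.Coprime.Action
import Mathlib

/-!
# Simple sections through primes whose square does not divide the group order

If `p ∣ |G|` and `p² ∤ |G|`, there are normal subgroups `N < H` of `G` with `H / N` simple,
`p ∤ |N|`, and `p ∣ |H|`.  Moreover every prime `q ≠ p` with `q ∣ |G|`, `q² ∤ |G|`, such that `G`
has no element of order `p q` and `q ∤ p - 1`, `p ∤ q - 1`, divides `|H / N|`.
-/

set_option autoImplicit false

namespace Cfsg.Agent.Lib.AltSpec

open Cfsg.Agent.Lib.Coprime.Action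

section Basic

variable {G : Type*} [Group G] [Finite G]

/-- An element of prime order `s` normalizing a subgroup of prime order `r`, with `s ∤ r - 1`,
commutes with that subgroup, so that the group has an element of order `r * s`. -/
theorem exists_orderOf_mul {R : Subgroup G} {y : G} {r s : ℕ} (hr : r.Prime) (hs : s.Prime)
    (hrs : r ≠ s) (hR : Nat.card R = r) (hy : orderOf y = s)
    (hny : y ∈ Subgroup.normalizer (R : Set G)) (hnd : ¬ s ∣ r - 1) :
    ∃ g : G, orderOf g = r * s := by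
  have : Fact r.Prime := ⟨hr⟩
  have : IsCyclic R := isCyclic_of_prime_card hR
  let φ : MulAut R := R.normalizerMonoidHom ⟨y, hny⟩
  have h1 : φ ^ s = 1 := by
    change (R.normalizerMonoidHom ⟨y, hny⟩) ^ s = 1
    rw [← map_pow]
    have : (⟨y, hny⟩ : Subgroup.normalizer (R : Set G)) ^ s = 1 := by
      ext
      simp [← hy, pow_orderOf_eq_one]
    rw [this, map_one]
  have h2 : φ ^ (r - 1) = 1 := by
    have hc : Nat.card (MulAut R) = r - 1 := by
      rw [IsCyclic.card_mulAut, hR, Nat.totient_prime hr]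
    rw [← hc]
    exact pow_card_eq_one'
  have hcop : s.gcd (r - 1) = 1 := (Nat.Prime.coprime_iff_not_dvd hs).2 hnd
  have h3 : φ = 1 := by
    have := pow_gcd_eq_one.2 ⟨h1, h2⟩
    rwa [hcop, pow_one] at this
  obtain ⟨x, hx⟩ := exists_prime_orderOf_dvd_card' (G := R) r (by rw [hR])
  have hcomm : y * (x : G) * y⁻¹ = x := by
    have : φ x = x := by rw [h3]; rfl
    exact congrArg (Subtype.val) this
  have hc : Commute (x : G) y := (mul_inv_eq_iff_eq_mul.1 hcomm).symm
  refine ⟨(x : G) * y, ?_⟩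
  rw [hc.orderOf_mul_eq_mul_orderOf_of_coprime, Subgroup.orderOf_coe, hx, hy]
  rw [Subgroup.orderOf_coe, hx, hy]
  exact (Nat.coprime_primes hr hs).2 hrs

end Basic

section Card

variable {Γ : Type*} [Group Γ] [Finite Γ]

theorem not_dvd_card_sup {p : ℕ} (hp : p.Prime) (A B : Subgroup Γ) [B.Normal]
    (hA : ¬ p ∣ Nat.card A) (hB : ¬ p ∣ Nat.card B) : ¬ p ∣ Nat.card (A ⊔ B : Subgroup Γ) := by
  rw [card_eq_card_mul_relIndex (le_sup_right : B ≤ A ⊔ B), Subgroup.relIndex_sup_right]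
  intro h
  rcases (Nat.Prime.dvd_mul hp).1 h with h | h
  · exact hB h
  · exact hA (h.trans (Subgroup.relIndex_dvd_card _ _))

theorem card_sup_mul_card_inf (A B : Subgroup Γ) [B.Normal] :
    Nat.card (A ⊔ B : Subgroup Γ) * Nat.card (A ⊓ B : Subgroup Γ) = Nat.card A * Nat.card B := by
  rw [card_eq_card_mul_relIndex (le_sup_right : B ≤ A ⊔ B), Subgroup.relIndex_sup_right,
    card_eq_card_mul_relIndex (inf_le_left : A ⊓ B ≤ A), Subgroup.inf_relIndex_left]
  ring

end Card

section Section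

variable {G : Type*} [Group G] [Finite G]

/-- Simplicity of a quotient from the "chief factor" property. -/
theorem isSimpleGroup_quotient {Γ : Type*} [Group Γ] (N : Subgroup Γ) [N.Normal] (hN : N ≠ ⊤)
    (h : ∀ S : Subgroup Γ, S.Normal → N < S → S = ⊤) : IsSimpleGroup (Γ ⧸ N) := by
  have hnt : Nontrivial (Γ ⧸ N) := QuotientGroup.nontrivial_iff.2 hN
  refine ⟨fun M hM => ?_⟩
  by_cases hbot : M = ⊥
  · exact Or.inl hbot
  right
  set L := M.comap (QuotientGroup.mk' N) with hL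
  have hLn : L.Normal := hM.comap _
  have hNL : N ≤ L := by
    intro x hx
    rw [hL, Subgroup.mem_comap]
    have : (QuotientGroup.mk' N) x = 1 := (QuotientGroup.eq_one_iff x).2 hx
    rw [this]
    exact M.one_mem
  have hlt : N < L := by
    refine lt_of_le_of_ne hNL ?_
    intro hEq
    apply hbot
    rw [eq_bot_iff]
    intro z hz
    obtain ⟨w, rfl⟩ := QuotientGroup.mk'_surjective N z
    have hw : w ∈ L := hz
    rw [← hEq] at hw
    rw [Subgroup.mem_bot]
    exact (QuotientGroup.eq_one_iff w).2 hw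
  have htop := h L hLn hlt
  rw [eq_top_iff]
  intro z _
  obtain ⟨w, rfl⟩ := QuotientGroup.mk'_surjective N z
  have hw : w ∈ L := by rw [htop]; trivial
  exact hw

/-- Existence of the section. -/
theorem exists_simple_section {p : ℕ} (hp : p.Prime) (hpG : p ∣ Nat.card G)
    (hp2 : ¬ p ^ 2 ∣ Nat.card G) :
    ∃ (H : Subgroup G) (N₀ : Subgroup H), H.Normal ∧ N₀.Normal ∧ (N₀.map H.subtype).Normal ∧
      ¬ p ∣ Nat.card N₀ ∧ p ∣ Nat.card H ∧ N₀ ≠ ⊤ ∧ ∃ _ : N₀.Normal, IsSimpleGroup (H ⧸ N₀) := by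
  obtain ⟨H, -, hHmin⟩ := Finite.exists_le_minimal (α := Subgroup G)
    (p := fun H => H.Normal ∧ p ∣ Nat.card H) (a := ⊤) ⟨inferInstance, by simpa using hpG⟩
  obtain ⟨hHn, hHp⟩ := hHmin.prop
  have := hHn
  obtain ⟨N₀, -, hN₀max⟩ := Finite.exists_le_maximal (α := Subgroup H)
    (p := fun K => K.Normal ∧ ¬ p ∣ Nat.card K) (a := ⊥)
    ⟨inferInstance, by simpa using hp.one_lt.ne'⟩
  obtain ⟨hN₀n, hN₀p⟩ := hN₀max.prop
  have := hN₀n
  have hle : ∀ K : Subgroup H, K.Normal → ¬ p ∣ Nat.card K → K ≤ N₀ := by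
    intro K hK hKp
    have := hK
    have h1 : (K ⊔ N₀ : Subgroup H).Normal := inferInstance
    have h2 := hN₀max.le_of_ge ⟨h1, not_dvd_card_sup hp K N₀ hKp hN₀p⟩ le_sup_right
    exact le_sup_left.trans h2
  let c : G →* MulAut H := MulAut.conjNormal
  have hconj : ∀ (K : Subgroup H) (g : G), K.Normal → (K.map (c g).toMonoidHom).Normal :=
    fun K g hK => hK.map _ (c g).surjective
  have hcard : ∀ (K : Subgroup H) (g : G), Nat.card (K.map (c g).toMonoidHom) = Nat.card K :=
    fun K g => Subgroup.card_map_of_injective (c g).injective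
  have hN₀c : ∀ g, N₀.map (c g).toMonoidHom ≤ N₀ := fun g =>
    hle _ (hconj _ _ hN₀n) (by rwa [hcard])
  have hup : ∀ L : Subgroup H, (∀ g, L.map (c g).toMonoidHom ≤ L) → (L.map H.subtype).Normal := by
    intro L hL
    refine ⟨fun x hx g => ?_⟩
    obtain ⟨y, hy, rfl⟩ := hx
    refine ⟨c g y, hL g ⟨y, hy, rfl⟩, ?_⟩
    simp [c, MulAut.conjNormal_apply]
  have hchief : ∀ L : Subgroup H, L.Normal → (∀ g, L.map (c g).toMonoidHom ≤ L) → L ≠ ⊤ →
      L ≤ N₀ := by
    intro L hLn hLc hLtop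
    apply hle L hLn
    intro hpL
    have h1 : H ≤ L.map H.subtype := hHmin.le_of_le
      ⟨hup L hLc, by rwa [Subgroup.card_map_of_injective H.subtype_injective]⟩
      (Subgroup.map_subtype_le L)
    apply hLtop
    rw [eq_top_iff]
    intro x _
    obtain ⟨y, hy, hyx⟩ := h1 x.2
    have : y = x := Subtype.ext hyx
    rwa [← this]
  have hN₀top : N₀ ≠ ⊤ := by
    intro h
    apply hN₀p
    rw [h, Subgroup.card_top]
    exact hHp
  have hminimal : ∀ S : Subgroup H, S.Normal → N₀ < S → S = ⊤ := by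
    intro S hS hNS
    obtain ⟨S₀, hS₀S, hS₀min⟩ := Finite.exists_le_minimal (α := Subgroup H)
      (p := fun K => K.Normal ∧ N₀ < K) (a := S) ⟨hS, hNS⟩
    obtain ⟨hS₀n, hNS₀⟩ := hS₀min.prop
    have := hS₀n
    have hpS₀ : p ∣ Nat.card S₀ := by
      by_contra hcon
      exact absurd (hle S₀ hS₀n hcon) (not_le_of_gt hNS₀)
    have hinv : ∀ g, S₀.map (c g).toMonoidHom ≤ S₀ := by
      intro g
      set S' := S₀.map (c g).toMonoidHom with hS'
      have hS'n : S'.Normal := hconj _ _ hS₀n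
      have := hS'n
      have hS'card : Nat.card S' = Nat.card S₀ := hcard _ _
      have hNS' : N₀ ≤ S' := by
        intro x hx
        refine ⟨c g⁻¹ x, hNS₀.le (hN₀c g⁻¹ ⟨x, hx, rfl⟩), ?_⟩
        change c g (c g⁻¹ x) = x
        rw [← MulAut.mul_apply, ← map_mul]
        simp
      by_contra hnot
      have hinf : S₀ ⊓ S' = N₀ := by
        by_contra hne
        have hlt : N₀ < S₀ ⊓ S' := lt_of_le_of_ne (le_inf hNS₀.le hNS') (Ne.symm hne)
        have h1 : S₀ ≤ S₀ ⊓ S' := hS₀min.le_of_le ⟨inferInstance, hlt⟩ inf_le_left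
        have h2 : S₀ ≤ S' := h1.trans inf_le_right
        have h3 : S₀ = S' := Subgroup.eq_of_le_of_card_ge h2 (by rw [hS'card])
        exact hnot (by rw [← h3])
      have hcardeq := card_sup_mul_card_inf S₀ S'
      rw [hinf, hS'card] at hcardeq
      have h1 : p ^ 2 ∣ Nat.card (S₀ ⊔ S' : Subgroup H) * Nat.card N₀ := by
        rw [hcardeq, pow_two]
        exact mul_dvd_mul hpS₀ hpS₀
      have hcop : Nat.Coprime (p ^ 2) (Nat.card N₀) :=
        Nat.Coprime.pow_left 2 ((Nat.Prime.coprime_iff_not_dvd hp).2 hN₀p)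
      have h2 : p ^ 2 ∣ Nat.card (S₀ ⊔ S' : Subgroup H) := hcop.dvd_of_dvd_mul_right h1
      apply hp2
      refine h2.trans ((Subgroup.card_subgroup_dvd_card _).trans ?_)
      exact Subgroup.card_subgroup_dvd_card H
    have hS₀top : S₀ = ⊤ := by
      by_contra hne
      exact absurd (hchief S₀ hS₀n hinv hne) (not_le_of_gt hNS₀)
    rw [eq_top_iff, ← hS₀top]
    exact hS₀S
  exact ⟨H, N₀, hHn, hN₀n, hup _ hN₀c, hN₀p, hHp, hN₀top, hN₀n,
    isSimpleGroup_quotient N₀ hN₀top hminimal⟩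

/-- All primes with square-free part and no mixed orders divide the order of a section with
`p ∤ |N|` and `p ∣ |H|`. -/
theorem prime_dvd_section {p q : ℕ} (hp : p.Prime) (hq : q.Prime) (hpq : p ≠ q)
    (hpG : p ∣ Nat.card G) (hp2 : ¬ p ^ 2 ∣ Nat.card G)
    (hqG : q ∣ Nat.card G) (hq2 : ¬ q ^ 2 ∣ Nat.card G)
    (hno : ∀ g : G, orderOf g ≠ p * q) (hq1 : ¬ q ∣ p - 1) (hp1 : ¬ p ∣ q - 1)
    (H N : Subgroup G) [H.Normal] [N.Normal] (hNH : N ≤ H) (hNp : ¬ p ∣ Nat.card N)
    (hHp : p ∣ Nat.card H) : q ∣ N.relIndex H := by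
  have : Fact p.Prime := ⟨hp⟩
  have : Fact q.Prime := ⟨hq⟩
  by_contra hcon
  obtain ⟨x, hx⟩ := exists_prime_orderOf_dvd_card' (G := G) q hqG
  obtain ⟨y, hy⟩ := exists_prime_orderOf_dvd_card' (G := G) p hpG
  have hcardH := card_eq_card_mul_relIndex hNH
  have hA : ∀ (z : G) (K : Subgroup G) (K' : K.Normal) (r s : ℕ) (_ : r.Prime) (_ : s.Prime) (_ : r ≠ s)
      (_ : r ∣ Nat.card K) (_ : ¬ r ^ 2 ∣ Nat.card G) (_ : ¬ s ∣ Nat.card K) (_ : orderOf z = s)
      (_ : ¬ s ∣ r - 1), ∃ g : G, orderOf g = r * s := by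
    intro z K K' r s hr hs hrs hrK hr2 hsK hz hsr
    have : Fact r.Prime := ⟨hr⟩
    have hcop : (Nat.card (Subgroup.zpowers z)).Coprime (Nat.card K) := by
      rw [Nat.card_zpowers, hz]
      exact (Nat.Prime.coprime_iff_not_dvd hs).2 hsK
    obtain ⟨Q, hQ, hQA⟩ := exists_invariant_sylowIn (p := r) (A := Subgroup.zpowers z) (K := K)
      (by
        rw [Subgroup.normalizer_eq_top]
        exact le_top) hcop
      (Or.inl (by
        have : IsCyclic (Subgroup.zpowers z) := inferInstance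
        infer_instance))
    obtain ⟨hQK, hQp, hQi⟩ := hQ
    obtain ⟨k, hk⟩ := (IsPGroup.iff_card).1 hQp
    have hQcard : Nat.card K = Nat.card Q * Q.relIndex K := card_eq_card_mul_relIndex hQK
    have hrQ : r ∣ Nat.card Q := by
      rw [hQcard] at hrK
      exact ((Nat.Prime.dvd_mul hr).1 hrK).resolve_right hQi
    have hk1 : k = 1 := by
      have hk0 : k ≠ 0 := by
        rintro rfl
        rw [hk, pow_zero] at hrQ
        exact hr.one_lt.ne' (Nat.dvd_one.1 hrQ)
      by_contra hk1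
      apply hr2
      have h2k : 2 ≤ k := by omega
      have hd : r ^ 2 ∣ Nat.card Q := by
        rw [hk]
        exact pow_dvd_pow _ h2k
      exact hd.trans (Subgroup.card_subgroup_dvd_card Q)
    rw [hk1, pow_one] at hk
    exact exists_orderOf_mul hr hs hrs hk hz (hQA (Subgroup.mem_zpowers z)) hsr
  by_cases hqN : q ∣ Nat.card N
  · obtain ⟨g, hg⟩ := hA y N inferInstance q p hq hp hpq.symm hqN hq2 hNp hy hp1
    exact hno g (by rw [hg, mul_comm])
  · have hqH : ¬ q ∣ Nat.card H := by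
      rw [hcardH]
      intro h
      rcases (Nat.Prime.dvd_mul hq).1 h with h | h
      · exact hqN h
      · exact hcon h
    obtain ⟨g, hg⟩ := hA x H inferInstance p q hp hq hpq hHp hp2 hqH hx hq1
    exact hno g hg

end Section

end Cfsg.Agent.Lib.AltSpec
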